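import Cfsg.Agent.Eq.Def_PLocal
import Mathlib.GroupTheory.NoncommPiCoprod
import Mathlib.GroupTheory.QuotientGroup.Basic

/-!
The diagonal of an orbit of pairwise commuting conjugates: if `Y₀ ≤ Y` centralizes `E` and every element of `Y`
outside `Y₀` moves `E` to a subgroup commuting with it, then `E` embeds diagonally into the centralizer of `Y`.
-/

set_option autoImplicit false

namespace CfsgLib.GlaubermanZJ

variable {M : Type*} [Group M] [Finite M]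

/-- The hypotheses of the diagonal construction. -/
structure OrbitData (Y : Subgroup M) (Y₀ : Subgroup ↥Y) (E : Subgroup M) : Prop where
  fix : ∀ y ∈ Y₀, ∀ e ∈ E, Commute (y : M) e
  away : ∀ y : ↥Y, y ∉ Y₀ → ∀ e ∈ E, ∀ f ∈ E, Commute e ((y : M) * f * (y : M)⁻¹)

namespace OrbitData

variable {Y : Subgroup M} {Y₀ : Subgroup ↥Y} {E : Subgroup M}

/-- The translate of `e` belonging to a coset. -/
noncomputable def tr (Y₀ : Subgroup ↥Y) (E : Subgroup M) (i : ↥Y ⧸ Y₀) : ↥E →* M :=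
  (MulAut.conj ((i.out : ↥Y) : M)).toMonoidHom.comp E.subtype

omit [Finite M] in
theorem tr_mk (h : OrbitData Y Y₀ E) (y : ↥Y) (e : ↥E) :
    tr Y₀ E (y : ↥Y ⧸ Y₀) e = (y : M) * e * (y : M)⁻¹ := by
  obtain ⟨z, hz⟩ := QuotientGroup.mk_out_eq_mul Y₀ y
  show (((QuotientGroup.mk y : ↥Y ⧸ Y₀).out) : M) * e * (((QuotientGroup.mk y : ↥Y ⧸ Y₀).out) : M)⁻¹ = _
  rw [hz, Subgroup.coe_mul]
  have h1 := (h.fix _ z.2 _ e.2).eq
  calc (y : M) * ((z : ↥Y) : M) * e * ((y : M) * ((z : ↥Y) : M))⁻¹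
      = (y : M) * (((z : ↥Y) : M) * e * ((z : ↥Y) : M)⁻¹) * (y : M)⁻¹ := by group
    _ = _ := by rw [h1, mul_inv_cancel_right]

omit [Finite M] in
theorem comm (h : OrbitData Y Y₀ E) :
    Pairwise fun i j : ↥Y ⧸ Y₀ => ∀ x y, Commute (tr Y₀ E i x) (tr Y₀ E j y) := by
  intro i j hij e f
  obtain ⟨a, rfl⟩ := QuotientGroup.mk_surjective i
  obtain ⟨b, rfl⟩ := QuotientGroup.mk_surjective j
  rw [h.tr_mk, h.tr_mk]
  have h1 := (h.away (a⁻¹ * b) (fun hm => hij (QuotientGroup.eq.2 hm)) _ e.2 _ f.2).map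
    (MulAut.conj (a : M)).toMonoidHom
  have e2 : (MulAut.conj (a : M)).toMonoidHom (((a⁻¹ * b : ↥Y) : M) * f * ((a⁻¹ * b : ↥Y) : M)⁻¹) =
      (b : M) * f * (b : M)⁻¹ := by simp [mul_assoc]
  rw [e2] at h1
  exact h1

/-- The diagonal embedding. -/
noncomputable def diag (h : OrbitData Y Y₀ E) : ↥E →* M :=
  haveI : Fintype (↥Y ⧸ Y₀) := Fintype.ofFinite _
  (MonoidHom.noncommPiCoprod (fun i => tr Y₀ E i) h.comm).comp (MonoidHom.pi fun _ => MonoidHom.id ↥E)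

theorem comm_set (h : OrbitData Y Y₀ E) (e : ↥E) (s : Set (↥Y ⧸ Y₀)) :
    s.Pairwise (Function.onFun Commute fun i => tr Y₀ E i e) := fun _ _ _ _ hij => h.comm hij e e

theorem diag_eq (h : OrbitData Y Y₀ E) [inst : Fintype (↥Y ⧸ Y₀)] (e : ↥E) :
    h.diag e = Finset.univ.noncommProd (fun i => tr Y₀ E i e) (h.comm_set e _) := by
  obtain rfl : inst = Fintype.ofFinite _ := Subsingleton.elim _ _
  rfl

theorem diag_mem (h : OrbitData Y Y₀ E) {N : Subgroup M}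
    (hN : ∀ y ∈ Y, ∀ e ∈ E, y * e * y⁻¹ ∈ N) (e : ↥E) : h.diag e ∈ N := by
  haveI : Fintype (↥Y ⧸ Y₀) := Fintype.ofFinite _
  rw [h.diag_eq]
  exact Subgroup.noncommProd_mem _ _ fun i _ => hN _ (i.out : ↥Y).2 _ e.2

theorem diag_commute (h : OrbitData Y Y₀ E) {y : M} (hy : y ∈ Y) (e : ↥E) : Commute y (h.diag e) := by
  haveI : Fintype (↥Y ⧸ Y₀) := Fintype.ofFinite _
  rw [commute_iff_eq, ← mul_inv_eq_iff_eq_mul]
  show (MulAut.conj y).toMonoidHom (h.diag e) = _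
  rw [h.diag_eq, Finset.map_noncommProd]
  have hs : ∀ i : ↥Y ⧸ Y₀, (MulAut.conj y).toMonoidHom (tr Y₀ E i e) = tr Y₀ E ((⟨y, hy⟩ : ↥Y) • i) e := by
    intro i
    obtain ⟨a, rfl⟩ := QuotientGroup.mk_surjective i
    rw [MulAction.Quotient.smul_mk, h.tr_mk, h.tr_mk]
    simp [smul_eq_mul, mul_assoc]
  simp only [Finset.noncommProd]
  congr 1
  simp only [hs]
  conv_rhs => rw [← Multiset.map_univ_val_equiv (MulAction.toPerm (⟨y, hy⟩ : ↥Y) : Equiv.Perm (↥Y ⧸ Y₀))]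
  rw [Multiset.map_map]
  rfl

/-- The diagonal element is `e` times a product of the other translates. -/
theorem diag_split (h : OrbitData Y Y₀ E) (e : ↥E) {N : Subgroup M}
    (hN : ∀ y : ↥Y, y ∉ Y₀ → ∀ f ∈ E, (y : M) * f * (y : M)⁻¹ ∈ N) :
    ∃ r ∈ N, h.diag e = (e : M) * r := by
  classical
  haveI : Fintype (↥Y ⧸ Y₀) := Fintype.ofFinite _
  rw [h.diag_eq, ← Finset.mul_noncommProd_erase _ (Finset.mem_univ ((1 : ↥Y) : ↥Y ⧸ Y₀))]
  refine ⟨(Finset.univ.erase ((1 : ↥Y) : ↥Y ⧸ Y₀)).noncommProd (fun i => tr Y₀ E i e) (h.comm_set e _),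
    Subgroup.noncommProd_mem _ _ fun i hi => ?_, by simp only [h.tr_mk, OneMemClass.coe_one, one_mul, inv_one, mul_one]⟩
  obtain ⟨a, rfl⟩ := QuotientGroup.mk_surjective i
  rw [h.tr_mk]
  exact hN a (fun ha => (Finset.mem_erase.1 hi).1 (QuotientGroup.eq.2 (by simpa using ha))) _ e.2

end OrbitData

end CfsgLib.GlaubermanZJ
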