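import Cfsg.Agent.FFModule.Product
import Cfsg.Agent.GlaubermanZJ.CommutingOrbit

/-!
A `q`-group `Y` with `q ≥ 5` permuting the `SL₂(p)` factors of a group generated by offenders: its centralizer
together with one Sylow `p`-subgroup generates everything, and contains a diagonal `SL₂(p)` acting on a diagonal plane.
-/

set_option autoImplicit false

open Cfsg CfsgLib.FFModule
open scoped commutatorElement Pointwise

namespace CfsgLib.GlaubermanZJ

variable {M : Type*} [Group M] [Finite M] {p : ℕ} [Fact p.Prime] {V H F : Subgroup M}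

/-- The hypotheses: a setting generated by offenders and a group normalizing it. -/
structure FactorAction (p q : ℕ) (V H F Y : Subgroup M) : Prop where
  set : Setting p V H F
  gen : H = ⨆ A : {A : Subgroup M // A ≤ H ∧ IsBestOffenderOn p V A}, (A : Subgroup M)
  normV : Y ≤ Subgroup.normalizer (V : Set M)
  normH : Y ≤ Subgroup.normalizer (H : Set M)
  normF : Y ≤ Subgroup.normalizer (F : Set M)
  pgroup : IsPGroup q Y
  big : 5 ≤ q

omit [Finite M] in
theorem map_conj_eq {X : Subgroup M} {y : M} (h : y ∈ Subgroup.normalizer (X : Set M)) :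
    X.map (MulAut.conj y).toMonoidHom = X :=
  Subgroup.mem_normalizer_iff_map_conj_eq.mp h

namespace FactorAction

variable {q : ℕ} [Fact q.Prime] {Y E : Subgroup M}

omit [Fact p.Prime] [Fact q.Prime] [Finite M] in
theorem conj_fixedPts (hS : FactorAction p q V H F Y) {y a : M} (hy : y ∈ Y) :
    fixedPts V (Subgroup.zpowers (y * a * y⁻¹)) =
      (fixedPts V (Subgroup.zpowers a)).map (MulAut.conj y).toMonoidHom := by
  have hmem : ∀ g v, g ∈ Y → v ∈ V → g * v * g⁻¹ ∈ V := fun g v hg hv =>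
    (Subgroup.mem_normalizer_iff.1 (hS.normV hg) v).1 hv
  ext v
  rw [fixedPts_zpowers]
  constructor
  · rintro ⟨hv, hc⟩
    refine ⟨y⁻¹ * v * y, (fixedPts_zpowers a).mpr ⟨?_, ?_⟩, by simp [mul_assoc]⟩
    · simpa using hmem _ _ (inv_mem hy) hv
    · calc a * (y⁻¹ * v * y) = y⁻¹ * ((y * a * y⁻¹) * v) * y := by group
        _ = y⁻¹ * (v * (y * a * y⁻¹)) * y := by rw [hc]
        _ = y⁻¹ * v * y * a := by group
  · rintro ⟨w, hw, rfl⟩
    obtain ⟨hw, hc⟩ := (fixedPts_zpowers a).mp hw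
    refine ⟨hmem _ _ hy hw, ?_⟩
    show y * a * y⁻¹ * (y * w * y⁻¹) = y * w * y⁻¹ * (y * a * y⁻¹)
    calc y * a * y⁻¹ * (y * w * y⁻¹) = y * (a * w) * y⁻¹ := by group
      _ = y * (w * a) * y⁻¹ := by rw [hc]
      _ = _ := by group

omit [Fact p.Prime] [Fact q.Prime] [Finite M] in
theorem transvection_conj (hS : FactorAction p q V H F Y) {y a : M} (hy : y ∈ Y)
    (ha : IsTransvection p V H a) : IsTransvection p V H (y * a * y⁻¹) := by
  refine ⟨(Subgroup.mem_normalizer_iff.1 (hS.normH hy) a).1 ha.1, by rw [conj_pow, ha.2.1]; group,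
    fun h1 => ha.2.2.1 (conj_eq_one_iff.mp h1), ?_⟩
  rw [hS.conj_fixedPts hy, Subgroup.card_map_of_injective (MulAut.conj y).injective]
  exact ha.2.2.2

omit [Fact q.Prime] in
theorem factor_conj (hS : FactorAction p q V H F Y) {y : M} (hy : y ∈ Y) (hE : IsFactor p V H F E) :
    IsFactor p V H F (E.map (MulAut.conj y).toMonoidHom) := by
  obtain ⟨a, b, e₁, e₂, c, P, rfl⟩ := hE
  rw [← P.commutator_F_sup hS.set, Subgroup.map_sup, Subgroup.map_commutator,
    map_conj_eq (hS.normF hy), MonoidHom.map_zpowers]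
  exact hS.set.exists_factor (hS.transvection_conj hy P.ha)

omit [Fact q.Prime] in
theorem factor_le_centralizer (hS : FactorAction p q V H F Y) {E' : Subgroup M} (hE : IsFactor p V H F E)
    (hE' : IsFactor p V H F E') (hne : E' ≠ E) :
    E' ≤ Subgroup.centralizer (E : Set M) ∧ E' ≤ Subgroup.centralizer ((⁅V, E⁆ : Subgroup M) : Set M) :=
  have h := hS.set.factor_disjoint hE hE' hne
  ⟨h.trans (hS.set.factor_split hS.gen hE).1, h.trans inf_le_right⟩

/-- An element of `Y` normalizing a factor centralizes it and its plane. -/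
theorem stabilizer_fixes (hS : FactorAction p q V H F Y) (hE : IsFactor p V H F E) {y : M} (hy : y ∈ Y)
    (hyE : y ∈ Subgroup.normalizer (E : Set M)) :
    (∀ u ∈ ⁅V, E⁆, Commute y u) ∧ ∀ e ∈ E, Commute y e := by
  have hyU : (⁅V, E⁆).map (MulAut.conj y).toMonoidHom = ⁅V, E⁆ := by
    rw [Subgroup.map_commutator, map_conj_eq (hS.normV hy),
      map_conj_eq hyE]
  obtain ⟨a, b, e₁, e₂, c, P, rfl⟩ := hE
  rw [P.commutator_eq hS.set] at hyU ⊢
  set U := plane e₁ e₂ with hU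
  have hUc : Nat.card U = p ^ 2 := P.card_plane hS.set
  have hconj : ∀ z ∈ Subgroup.zpowers y, ∀ u ∈ U, z * u * z⁻¹ ∈ U := fun z hz u hu =>
    (Subgroup.mem_normalizer_iff.1 ((Subgroup.zpowers_le.2 (Subgroup.mem_normalizer_iff_map_conj_eq.2 hyU)) hz) u).1 hu
  let act : MulAction ↥(Subgroup.zpowers y) U :=
    { smul := fun z u => ⟨(z : M) * u * (z : M)⁻¹, hconj z z.2 u u.2⟩
      one_smul := fun u => Subtype.ext (by show (1 : M) * u * (1 : M)⁻¹ = u; group)
      mul_smul := fun z w u => Subtype.ext (by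
        show (z : M) * w * u * ((z : M) * w)⁻¹ = z * (w * u * (w : M)⁻¹) * (z : M)⁻¹
        group) }
  have hmod : Nat.card U ≡ Nat.card (MulAction.fixedPoints ↥(Subgroup.zpowers y) U) [MOD q] :=
    (hS.pgroup.to_le (Subgroup.zpowers_le.2 hy)).card_modEq_card_fixedPoints U
  set U₀ := U ⊓ Subgroup.centralizer {y} with hU₀
  have hfix : Nat.card (MulAction.fixedPoints ↥(Subgroup.zpowers y) U) = Nat.card U₀ := by
    refine Nat.card_congr
      { toFun := fun u => ⟨u.1, u.1.2, Subgroup.mem_centralizer_singleton_iff.2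
          (mul_inv_eq_iff_eq_mul.1 (congrArg Subtype.val (u.2 ⟨y, Subgroup.mem_zpowers y⟩))).symm⟩
        invFun := fun u => ⟨⟨u.1, u.2.1⟩, fun z => Subtype.ext (mul_inv_eq_iff_eq_mul.2 ?_)⟩
        left_inv := fun u => rfl
        right_inv := fun u => rfl }
    obtain ⟨i, hi⟩ := z.2
    rw [← hi]
    exact (Commute.zpow_left (Subgroup.mem_centralizer_singleton_iff.1 u.2.2).symm i).eq
  rw [hfix, hUc] at hmod
  have hU0 : U₀ = U := by
    refine Subgroup.eq_of_le_of_card_ge inf_le_left ?_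
    rw [hUc]
    obtain ⟨k, hk2, hk⟩ := (Nat.dvd_prime_pow (Fact.out : p.Prime)).1 (hUc ▸ Subgroup.card_dvd_of_le (inf_le_left : U₀ ≤ U))
    rw [hk] at hmod ⊢
    by_contra hlt
    have hd : q ∣ p ^ 2 - p ^ k := (Nat.modEq_iff_dvd' (Nat.pow_le_pow_right (Fact.out : p.Prime).pos hk2)).1 hmod.symm
    have hq5 := hS.big
    have hq := (Fact.out : q.Prime)
    rcases P.prime_le_three hS.set with rfl | rfl <;> interval_cases k <;> norm_num at hd hlt
    all_goals
      first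
        | exact absurd (Nat.le_of_dvd (by norm_num) hd) (by omega)
        | skip
    · have := hq.dvd_mul.1 (show q ∣ 2 * 4 from hd)
      rcases this with h | h <;> exact absurd (Nat.le_of_dvd (by norm_num) h) (by omega)
    · have := hq.dvd_mul.1 (show q ∣ 2 * 3 from hd)
      rcases this with h | h <;> exact absurd (Nat.le_of_dvd (by norm_num) h) (by omega)
  have hcomm : ∀ u ∈ U, Commute y u := fun u hu =>
    (Subgroup.mem_centralizer_singleton_iff.1 (hU0.ge hu).2).symm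
  refine ⟨hcomm, fun e he => ?_⟩
  have he' : y * e * y⁻¹ ∈ dGroup a b := (Subgroup.mem_normalizer_iff.1 hyE e).1 he
  refine mul_inv_eq_iff_eq_mul.1 (P.ext_plane hS.set he' he fun x => ?_)
  have hu := (P.mem_plane_iff hS.set).2 ⟨x, rfl⟩
  set u := planeMap e₁ e₂ x
  have hv : e * u * e⁻¹ ∈ U := by
    have h1 : ⁅V, dGroup a b⁆ = U := P.commutator_eq hS.set
    show _ ∈ U
    have hu' : u ∈ ⁅V, dGroup a b⁆ := h1.ge hu
    rw [← h1]
    exact (Subgroup.mem_normalizer_iff.1 (Subgroup.normalizer_commutator_ge_right V (dGroup a b) he) u).1 hu'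
  have h1 : y⁻¹ * u * y = u := by rw [mul_assoc, ← (hcomm u hu).eq, inv_mul_cancel_left]
  calc y * e * y⁻¹ * u * (y * e * y⁻¹)⁻¹ = y * (e * (y⁻¹ * u * y) * e⁻¹) * y⁻¹ := by group
    _ = y * (e * u * e⁻¹) * y⁻¹ := by rw [h1]
    _ = e * u * e⁻¹ := by rw [(hcomm _ hv).eq, mul_inv_cancel_right]

theorem orbit_factor (hS : FactorAction p q V H F Y) (hE : IsFactor p V H F E) :
    OrbitData Y ((Subgroup.normalizer (E : Set M)).subgroupOf Y) E where
  fix y hy := (hS.stabilizer_fixes hE y.2 hy).2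
  away y hy e he f hf := Subgroup.mem_centralizer_iff.1 ((hS.factor_le_centralizer hE (hS.factor_conj y.2 hE)
    fun h => hy (Subgroup.mem_normalizer_iff_map_conj_eq.2 h)).1 ⟨f, hf, rfl⟩) e he

theorem orbit_plane (hS : FactorAction p q V H F Y) (hE : IsFactor p V H F E) :
    OrbitData Y ((Subgroup.normalizer (E : Set M)).subgroupOf Y) ⁅V, E⁆ where
  fix y hy := (hS.stabilizer_fixes hE y.2 hy).1
  away y _ e he f hf := by
    have hle : ⁅V, E⁆ ≤ V := by
      conv_rhs => rw [← (hS.set.factor_inf_bot hE).2.2]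
      exact le_sup_left
    exact hS.set.commV (hle he) ((Subgroup.mem_normalizer_iff.1 (hS.normV y.2) f).1 (hle hf))

omit [Fact q.Prime] in
/-- Factors contain every transvection. -/
theorem exists_factor_mem (hS : FactorAction p q V H F Y) {t : M} (ht : IsTransvection p V H t) :
    ∃ E, IsFactor p V H F E ∧ t ∈ E :=
  ⟨_, hS.set.exists_factor ht, Subgroup.mem_sup_right (Subgroup.mem_zpowers t)⟩

/-- The centralizer of `Y` and one Sylow `p`-subgroup generate `H`. -/
theorem le_of_sylow (hS : FactorAction p q V H F Y) {T X : Subgroup M} (hTX : T ≤ X)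
    (hC : H ⊓ Subgroup.centralizer (Y : Set M) ≤ X)
    (hT : ∀ t ∈ H, t ^ p = 1 → ∃ g ∈ H, g * t * g⁻¹ ∈ T) : H ≤ X := by
  refine hS.set.le_of_transvection hS.gen fun t ht => ?_
  obtain ⟨E, hE, htE⟩ := hS.exists_factor_mem ht
  obtain ⟨g, hg, hgT⟩ := hT t ht.1 ht.2.1
  obtain ⟨hc, hsup⟩ := hS.set.factor_split hS.gen hE
  have hg' : g ∈ (E : Set M) * ((H ⊓ Subgroup.centralizer ((⁅V, E⁆ : Subgroup M) : Set M) : Subgroup M) : Set M) := by
    rw [← Subgroup.coe_mul_of_right_le_normalizer_left E _ (hc.trans (Subgroup.centralizer_le_normalizer _)), hsup]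
    exact hg
  obtain ⟨e, he, k, hk, rfl⟩ := hg'
  simp only [SetLike.mem_coe] at he hk
  have hkt : k * t * k⁻¹ = t := mul_inv_eq_iff_eq_mul.2 (Subgroup.mem_centralizer_iff.1 (hc hk) t htE).symm
  have ht0 : e * t * e⁻¹ ∈ T := by
    have h1 : e * k * t * (e * k)⁻¹ = e * t * e⁻¹ := by
      calc e * k * t * (e * k)⁻¹ = e * (k * t * k⁻¹) * e⁻¹ := by group
        _ = _ := by rw [hkt]
    rwa [h1] at hgT
  have hO := hS.orbit_factor hE
  have hEH := hS.set.factor_le hE
  obtain ⟨r, hr, hre⟩ := hO.diag_split ⟨e⁻¹, inv_mem he⟩ (N := Subgroup.centralizer (E : Set M))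
    fun y hy f hf => (hS.factor_le_centralizer hE (hS.factor_conj y.2 hE)
      fun h => hy (Subgroup.mem_normalizer_iff_map_conj_eq.2 h)).1 ⟨f, hf, rfl⟩
  have hdX : hO.diag ⟨e⁻¹, inv_mem he⟩ ∈ X := by
    refine hC ⟨hO.diag_mem (fun y hy f hf => (Subgroup.mem_normalizer_iff.1 (hS.normH hy) f).1 (hEH hf)) _,
      Subgroup.mem_centralizer_iff.2 fun y hy => (hO.diag_commute hy _).eq⟩
  have h2 := mul_mem (mul_mem hdX (hTX ht0)) (inv_mem hdX)
  have h3 : r * (e * t * e⁻¹) * r⁻¹ = e * t * e⁻¹ := mul_inv_eq_iff_eq_mul.2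
    (Subgroup.mem_centralizer_iff.1 hr _ (mul_mem (mul_mem he htE) (inv_mem he))).symm
  rw [hre, show ((⟨e⁻¹, inv_mem he⟩ : ↥E) : M) * r * (e * t * e⁻¹) * ((⟨e⁻¹, inv_mem he⟩ : ↥E) * r : M)⁻¹ =
      e⁻¹ * (r * (e * t * e⁻¹) * r⁻¹) * e by simp [mul_assoc], h3] at h2
  simpa [mul_assoc] using h2

/-- A diagonal `SL₂(p)` centralized by `Y` on a diagonal plane. -/
theorem exists_diagonal (hS : FactorAction p q V H F Y) (hne : H ≠ ⊥) :
    ∃ W D : Subgroup M, W ≤ V ⊓ Subgroup.centralizer (Y : Set M) ∧ D ≤ H ⊓ Subgroup.centralizer (Y : Set M) ∧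
      Nat.card W = p ^ 2 ∧ D ≤ Subgroup.normalizer (W : Set M) ∧
      D ⊓ Subgroup.centralizer (W : Set M) = ⊥ ∧
      Nonempty (↥D ≃* Matrix.SpecialLinearGroup (Fin 2) (ZMod p)) := by
  obtain ⟨t, ht⟩ : ∃ t, IsTransvection p V H t := by
    by_contra! h
    exact hne (le_bot_iff.1 (hS.set.le_of_transvection hS.gen fun t ht => absurd ht (h t)))
  obtain ⟨E, hE, -⟩ := hS.exists_factor_mem ht
  obtain ⟨hEU, hUfix, hUV⟩ := hS.set.factor_inf_bot hE
  obtain ⟨-, ⟨θ⟩, hUcard⟩ := hS.set.factor_equiv hE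
  have hEH := hS.set.factor_le hE
  have hUle : ⁅V, E⁆ ≤ V := by
    conv_rhs => rw [← hUV]
    exact le_sup_left
  have hO := hS.orbit_factor hE
  have hP := hS.orbit_plane hE
  set U := ⁅V, E⁆ with hU
  have hyne : ∀ y : ↥Y, y ∉ (Subgroup.normalizer (E : Set M)).subgroupOf Y →
      E.map (MulAut.conj (y : M)).toMonoidHom ≠ E :=
    fun y hy h => hy (Subgroup.mem_normalizer_iff_map_conj_eq.2 h)
  -- the translates of the plane are fixed by `E`, those of `E` fix the plane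
  have hsplitP : ∀ u : ↥U, ∃ r ∈ fixedPts V E, hP.diag u = u * r := fun u => hP.diag_split u fun y hy f hf => by
    refine ⟨(Subgroup.mem_normalizer_iff.1 (hS.normV y.2) f).1 (hUle hf), Subgroup.mem_centralizer_iff.2 fun e he => ?_⟩
    have h1 := (hS.factor_le_centralizer (hS.factor_conj y.2 hE) hE (hyne y hy).symm).2 he
    refine (Subgroup.mem_centralizer_iff.1 h1 _ ?_).symm
    rw [show (((⁅V, E.map (MulAut.conj (y : M)).toMonoidHom⁆) : Subgroup M) : Set M) = _ from congrArg _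
      (show ⁅V, E.map (MulAut.conj (y : M)).toMonoidHom⁆ = U.map (MulAut.conj (y : M)).toMonoidHom by
        rw [hU, Subgroup.map_commutator, map_conj_eq (hS.normV y.2)])]
    exact ⟨f, hf, rfl⟩
  have hsplitO : ∀ e : ↥E, ∃ r ∈ Subgroup.centralizer (U : Set M), hO.diag e = e * r := fun e =>
    hO.diag_split e fun y hy f hf => (hS.factor_le_centralizer hE (hS.factor_conj y.2 hE) (hyne y hy)).2 ⟨f, hf, rfl⟩
  have hPinj : Function.Injective hP.diag := by
    refine (injective_iff_map_eq_one _).2 fun u hu => Subtype.ext ?_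
    obtain ⟨r, hr, hre⟩ := hsplitP u
    rw [hre] at hu
    exact Subgroup.mem_bot.1 (hUfix ▸ Subgroup.mem_inf.2 ⟨u.2, eq_inv_of_mul_eq_one_left hu ▸ inv_mem hr⟩)
  have hUn : ∀ e : ↥E, ∀ u : ↥U, (e : M) * u * (e : M)⁻¹ ∈ U := fun e u =>
    (Subgroup.mem_normalizer_iff.1 (Subgroup.normalizer_commutator_ge_right V E e.2) u).1 u.2
  have hequiv : ∀ (e : ↥E) (u : ↥U), hO.diag e * hP.diag u * (hO.diag e)⁻¹ = hP.diag ⟨_, hUn e u⟩ := by
    intro e u
    haveI : Fintype (↥Y ⧸ (Subgroup.normalizer (E : Set M)).subgroupOf Y) := Fintype.ofFinite _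
    classical
    show (MulAut.conj (hO.diag e)).toMonoidHom (hP.diag u) = _
    rw [hP.diag_eq, Finset.map_noncommProd, hP.diag_eq]
    refine Finset.noncommProd_congr rfl (fun i _ => ?_) _
    obtain ⟨y, rfl⟩ := QuotientGroup.mk_surjective i
    rw [hP.tr_mk, hP.tr_mk]
    obtain ⟨r, hr, hre⟩ := hsplitO e
    have hyd : hO.diag e = (y : M) * hO.diag e * (y : M)⁻¹ := by rw [(hO.diag_commute y.2 e).eq, mul_inv_cancel_right]
    show hO.diag e * ((y : M) * u * (y : M)⁻¹) * (hO.diag e)⁻¹ = _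
    rw [hyd, hre]
    have hru : r * u * r⁻¹ = u := mul_inv_eq_iff_eq_mul.2 (Subgroup.mem_centralizer_iff.1 hr u u.2).symm
    calc (y : M) * (e * r) * (y : M)⁻¹ * ((y : M) * u * (y : M)⁻¹) * ((y : M) * (e * r) * (y : M)⁻¹)⁻¹
        = (y : M) * (e * (r * u * r⁻¹) * (e : M)⁻¹) * (y : M)⁻¹ := by group
      _ = _ := by rw [hru]
  have hfaith : ∀ e : ↥E, hO.diag e ∈ Subgroup.centralizer (hP.diag.range : Set M) → e = 1 := by
    intro e he
    refine Subtype.ext (Subgroup.mem_bot.1 (hEU ▸ Subgroup.mem_inf.2 ⟨e.2, Subgroup.mem_inf.2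
      ⟨hEH e.2, Subgroup.mem_centralizer_iff.2 fun u hu => ?_⟩⟩))
    have h1 : hP.diag ⟨_, hUn e ⟨u, hu⟩⟩ = hP.diag ⟨u, hu⟩ := by
      rw [← hequiv, ← Subgroup.mem_centralizer_iff.1 he _ ⟨⟨u, hu⟩, rfl⟩, mul_inv_cancel_right]
    exact (mul_inv_eq_iff_eq_mul.1 (congrArg Subtype.val (hPinj h1))).symm
  have hOinj : Function.Injective hO.diag :=
    (injective_iff_map_eq_one _).2 fun e he => hfaith e (he ▸ one_mem _)
  refine ⟨hP.diag.range, hO.diag.range, ?_, ?_, ?_, ?_, ?_, ⟨(MonoidHom.ofInjective hOinj).symm.trans θ⟩⟩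
  · rintro _ ⟨u, rfl⟩
    exact ⟨hP.diag_mem (fun y hy f hf => (Subgroup.mem_normalizer_iff.1 (hS.normV hy) f).1 (hUle hf)) u,
      Subgroup.mem_centralizer_iff.2 fun y hy => (hP.diag_commute hy _).eq⟩
  · rintro _ ⟨e, rfl⟩
    exact ⟨hO.diag_mem (fun y hy f hf => (Subgroup.mem_normalizer_iff.1 (hS.normH hy) f).1 (hEH hf)) e,
      Subgroup.mem_centralizer_iff.2 fun y hy => (hO.diag_commute hy _).eq⟩
  · rw [← Nat.card_congr (MonoidHom.ofInjective hPinj).toEquiv, hUcard]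
  · rintro _ ⟨e, rfl⟩
    refine Subgroup.mem_normalizer_iff_map_conj_eq.2 (Subgroup.eq_of_le_of_card_ge ?_
      (Subgroup.card_map_of_injective (MulAut.conj _).injective).ge)
    rintro _ ⟨_, ⟨u, rfl⟩, rfl⟩
    exact ⟨⟨_, hUn e u⟩, (hequiv e u).symm⟩
  · rw [eq_bot_iff]
    rintro _ ⟨⟨e, rfl⟩, hc⟩
    rw [Subgroup.mem_bot, hfaith e hc, map_one]

end FactorAction

end CfsgLib.GlaubermanZJ
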