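import Cfsg.Agent.GlaubermanZJ.PStable
import Cfsg.Agent.SectionFunctors.Basic
import Cfsg.Agent.Eq.Def_LocalEven

/-!
Normalizers without `SL(2)` sections make every section `p`-stable in the normalizer form.
-/

set_option autoImplicit false

open Cfsg
open CfsgLib.ConjFunctor
open scoped commutatorElement

namespace CfsgLib.GlaubermanZJ

universe u

variable {p : ℕ} [Fact p.Prime]

/-- The clause of `IsNormalizerPStable` at `Q`, when its normalizer acts `p`-stably on normal `p`-subgroups. -/
theorem mem_pCore_of_isPStableOn_normalizer {H : Type u} [Group H] [Finite H] {Q : Subgroup H}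
    (hQ : IsPGroup p ↥Q)
    (h : ∀ (P : Subgroup ↥(Subgroup.normalizer (Q : Set H))) [P.Normal], IsPGroup p ↥P → IsPStableOn p P)
    (g : H) (hg : g ∈ Subgroup.normalizer (Q : Set H))
    (hq : ⁅⁅Q, Subgroup.zpowers g⁆, Subgroup.zpowers g⁆ = ⊥) :
    (QuotientGroup.mk (s := (Subgroup.centralizer (Q : Set H)).subgroupOf (Subgroup.normalizer (Q : Set H)))
        (⟨g, hg⟩ : ↥(Subgroup.normalizer (Q : Set H)))) ∈
      pCore p (↥(Subgroup.normalizer (Q : Set H)) ⧸
        (Subgroup.centralizer (Q : Set H)).subgroupOf (Subgroup.normalizer (Q : Set H))) := by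
  set N := Subgroup.normalizer (Q : Set H) with hN
  haveI : (Q.subgroupOf N).Normal := Subgroup.normal_in_normalizer
  have hQN : (Q.subgroupOf N).map N.subtype = Q := Subgroup.map_subgroupOf_eq_of_le Subgroup.le_normalizer
  have hC : Subgroup.centralizer ((Q.subgroupOf N : Subgroup ↥N) : Set ↥N) =
      (Subgroup.centralizer (Q : Set H)).subgroupOf N := by
    ext x
    simp only [Subgroup.mem_centralizer_iff, Subgroup.mem_subgroupOf, SetLike.mem_coe]
    exact ⟨fun hx y hy => congrArg Subtype.val (hx ⟨y, Subgroup.le_normalizer hy⟩ hy),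
      fun hx y hy => Subtype.ext (hx y hy)⟩
  have h1 := h (Q.subgroupOf N) (hQ.comap_of_injective N.subtype N.subtype_injective) ⟨g, hg⟩ (by
      rw [← Subgroup.map_eq_bot_iff_of_injective _ N.subtype_injective, Subgroup.map_commutator,
        Subgroup.map_commutator, hQN, MonoidHom.map_zpowers]
      exact hq)
  let e := QuotientGroup.quotientMulEquivOfEq hC
  rw [← Constrained.pCore_map e p]
  exact ⟨_, h1, rfl⟩

/-- The clause of `IsNormalizerPStable` at `Q`, when the normalizer of `Q` has no such section. -/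
theorem mem_pCore_of_noSL2Section_normalizer {H : Type u} [Group H] [Finite H] {Q : Subgroup H}
    (hQ : IsPGroup p ↥Q) (h : NoSL2Section p ↥(Subgroup.normalizer (Q : Set H))) (g : H)
    (hg : g ∈ Subgroup.normalizer (Q : Set H))
    (hq : ⁅⁅Q, Subgroup.zpowers g⁆, Subgroup.zpowers g⁆ = ⊥) :
    (QuotientGroup.mk (s := (Subgroup.centralizer (Q : Set H)).subgroupOf (Subgroup.normalizer (Q : Set H)))
        (⟨g, hg⟩ : ↥(Subgroup.normalizer (Q : Set H)))) ∈
      pCore p (↥(Subgroup.normalizer (Q : Set H)) ⧸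
        (Subgroup.centralizer (Q : Set H)).subgroupOf (Subgroup.normalizer (Q : Set H))) :=
  mem_pCore_of_isPStableOn_normalizer hQ (fun P _ hP => isPStableOn_of_noSL2Section h P hP) g hg hq

/-- A `p`-subgroup of an image lifts to a `p`-subgroup whose normalizer covers its normalizer. -/
theorem exists_lift_pgroup_normalizer {G H : Type u} [Group G] [Finite G] [Group H] (f : G →* H) (hf : Function.Surjective f)
    {Q : Subgroup H} (hQ : IsPGroup p ↥Q) :
    ∃ P : Subgroup G, IsPGroup p ↥P ∧ P.map f = Q ∧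
      (Subgroup.normalizer (P : Set G)).map f = Subgroup.normalizer (Q : Set H) := by
  haveI : Finite H := Finite.of_surjective f hf
  set M := Q.comap f with hM
  obtain ⟨S⟩ : Nonempty (Sylow p ↥M) := inferInstance
  set P := (S : Subgroup ↥M).map M.subtype with hP
  have hPM : P ≤ M := Subgroup.map_subtype_le _
  have hPp : IsPGroup p ↥P := S.2.map _
  have hsurj : Function.Surjective (f.subgroupComap Q) := fun q => by
    obtain ⟨x, hx⟩ := hf q
    exact ⟨⟨x, show f x ∈ Q by rw [hx]; exact q.2⟩, Subtype.ext hx⟩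
  have htop : ((S.mapSurjective hsurj : Sylow p ↥Q) : Subgroup ↥Q) = ⊤ :=
    (Sylow.is_maximal' (S.mapSurjective hsurj) (hQ.to_subgroup ⊤) le_top).symm
  have hmap : P.map f = Q := by
    refine le_antisymm (Subgroup.map_le_iff_le_comap.mpr hPM) fun q hq => ?_
    obtain ⟨s, hs, hsq⟩ : (⟨q, hq⟩ : ↥Q) ∈ (S : Subgroup ↥M).map (f.subgroupComap Q) := by
      rw [← Sylow.coe_mapSurjective hsurj S, htop]; trivial
    exact ⟨s, ⟨s, hs, rfl⟩, congrArg Subtype.val hsq⟩
  refine ⟨P, hPp, hmap, le_antisymm ((Subgroup.le_normalizer_map f).trans_eq (by rw [hmap])) fun y hy => ?_⟩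
  obtain ⟨g, rfl⟩ := hf y
  have hle : conjOf g P ≤ M := by
    rintro _ ⟨t, ht, rfl⟩
    show f (g * t * g⁻¹) ∈ Q
    rw [map_mul, map_mul, map_inv]
    exact (Subgroup.mem_normalizer_iff.mp hy _).mp (hPM ht)
  have hsyl : SylowIn p P M := by
    refine ⟨hPM, hPp, ?_⟩
    rw [hP, Subgroup.relIndex, Subgroup.subgroupOf, Subgroup.comap_map_eq_self_of_injective M.subtype_injective]
    exact S.not_dvd_index
  obtain ⟨m, hm, hmle⟩ := exists_conj_le_of_sylowIn hsyl hle (hPp.map _)
  rw [conjOf_conjOf] at hmle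
  have hn : m * g ∈ Subgroup.normalizer (P : Set G) :=
    mem_normalizer_iff_conjOf.mpr (Subgroup.eq_of_le_of_card_ge hmle (card_conjOf _ _).ge)
  obtain ⟨t, ht, htm⟩ : f m ∈ P.map f := by rw [hmap]; exact hm
  refine ⟨t⁻¹ * (m * g), Subgroup.mul_mem _ (Subgroup.inv_mem _ (Subgroup.le_normalizer ht)) hn, ?_⟩
  simp [htm]

/-- Absence of such sections in the normalizers of the nontrivial `p`-subgroups gives `p`-stable sections. -/
theorem isNormalizerPStable_section_of_normalizers {G : Type u} [Group G] [Finite G]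
    (h : ∀ P : Subgroup G, IsPGroup p ↥P → P ≠ ⊥ → NoSL2Section p ↥(Subgroup.normalizer (P : Set G)))
    {H : Type u} [Group H] {K : Subgroup G} (f : ↥K →* H) (hf : Function.Surjective f) :
    IsNormalizerPStable p H := by
  haveI : Finite H := Finite.of_surjective f hf
  intro Q hQ g hg hq
  rcases eq_or_ne Q ⊥ with rfl | hne
  · have h1 : (Subgroup.centralizer ((⊥ : Subgroup H) : Set H)) = ⊤ :=
      eq_top_iff.mpr fun x _ => Subgroup.mem_centralizer_iff.mpr fun y hy => by
        rw [Subgroup.mem_bot.mp hy, one_mul, mul_one]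
    have h2 : (QuotientGroup.mk (s := (Subgroup.centralizer ((⊥ : Subgroup H) : Set H)).subgroupOf _)
        (⟨g, hg⟩ : ↥(Subgroup.normalizer ((⊥ : Subgroup H) : Set H)))) = 1 :=
      (QuotientGroup.eq_one_iff _).mpr (Subgroup.mem_subgroupOf.mpr (by rw [h1]; trivial))
    rw [h2]; exact one_mem _
  refine mem_pCore_of_noSL2Section_normalizer hQ ?_ g hg hq
  obtain ⟨P, hPp, hPQ, hN⟩ := exists_lift_pgroup_normalizer f hf hQ
  have hPne : P.map K.subtype ≠ ⊥ := fun h0 => hne (by
    rw [← hPQ, (Subgroup.map_eq_bot_iff_of_injective _ K.subtype_injective).mp h0, Subgroup.map_bot])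
  have h1 : NoSL2Section p ↥(Subgroup.normalizer (P : Set ↥K)) := (h _ (hPp.map _) hPne).of_injective
    ((K.subtype.comp (Subgroup.normalizer (P : Set ↥K)).subtype).codRestrict _ fun x =>
      Subgroup.le_normalizer_map K.subtype ⟨x, x.2, rfl⟩)
    (fun a b hab => by
      have h2 := congrArg Subtype.val hab
      exact Subtype.ext (K.subtype_injective h2))
  exact h1.of_surjective ((f.comp (Subgroup.normalizer (P : Set ↥K)).subtype).codRestrict _ fun x => by
      rw [← hN]; exact ⟨x, x.2, rfl⟩) fun y => by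
      obtain ⟨x, hx, hxy⟩ : (y : H) ∈ (Subgroup.normalizer (P : Set ↥K)).map f := by rw [hN]; exact y.2
      exact ⟨⟨x, hx⟩, Subtype.ext hxy⟩

end CfsgLib.GlaubermanZJ
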